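import Cfsg.Agent.H92.TD.Reg

/-!
# Eight vectors permuted by the Weyl group of type `D₄`, for S5745 (helper440)

* `exists_perm` : the Weyl group permutes the vectors `O j`;
* `eq_one_of_chars` : an element of the Weyl group fixing the functionals `G1`, `G2` modulo 3 is trivial;
* `check7` : an eigenfunctional of `M3` modulo 7 with `∑ L (O j) ^ 4 = 0` is zero or regular.
-/

set_option autoImplicit false
set_option linter.unusedSectionVars false

namespace Cfsg.Agent.H440.EPX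

open CoxeterSystem Cfsg Cfsg.Lie Cfsg.Lie.ChevalleyDatum
open Cfsg.Agent.ChevalleyStructure Cfsg.Agent.ChevalleyStructure.Elts Cfsg.Agent.ChevalleyStructure.CoxeterGeom
  Cfsg.Agent.ChevalleyStructure.CoxeterGeomTypes Cfsg.Agent.ChevalleyStructure.NPerm
open Cfsg.Agent.Tits.Roots Cfsg.Agent.Tits.Core Cfsg.Agent.Nodes Cfsg.Agent.Nodes.Reps Cfsg.Agent.Nodes.BNOf
  Cfsg.Agent.Nodes.RGDChev Cfsg.Agent.Nodes.Bruhat Cfsg.Agent.Nodes.SubComb Cfsg.Agent.Nodes.Coroot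
open Cfsg.Agent.H129 Cfsg.Agent.H129.WData Cfsg.Agent.H129.TorusChar
open Cfsg.Agent.H493.PGD4T (Am hA)

/-- twice the weights of the natural module -/
def O : Fin 8 → Fin 4 → ℤ := ![![-2, -2, -1, -1], ![0, -2, -1, -1], ![0, 0, -1, -1], ![0, 0, -1, 1], ![0, 0, 1, -1],
  ![0, 0, 1, 1], ![0, 2, 1, 1], ![2, 2, 1, 1]]

/-- the simple reflections on the indices -/
def pm : Fin 4 → Fin 8 → Fin 8 := ![![1, 0, 2, 3, 4, 5, 7, 6], ![0, 2, 1, 3, 4, 6, 5, 7], ![0, 1, 4, 5, 2, 3, 6, 7], ![0, 1, 3, 2, 5, 4, 6, 7]]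

theorem pm_ok : ∀ (i : Fin 4) (j : Fin 8) (m : Fin 4), O (pm i j) m = O j m - if m = i then ∑ n, Am i n * O j n else 0 := by
  decide +kernel

theorem pm_inv : ∀ (i : Fin 4) (j : Fin 8), pm i (pm i j) = j := by decide +kernel

/-- the coefficients of the simple roots -/
def Bm : Fin 4 → Fin 8 → ℤ := ![![0, 0, 0, 0, 0, 0, -1, 1], ![0, 0, 0, 0, 0, -1, 1, 0], ![0, 0, 0, -1, 0, 1, 0, 0],
  ![0, 0, 0, 1, 0, 1, 0, 0]]

theorem bm_ok : ∀ (i m : Fin 4), ∑ j, Bm i j * O j m = 2 * if m = i then 1 else 0 := by decide +kernel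

/-- the functionals modulo 3 -/
def G1 : Fin 4 → ℤ := ![0, 1, 1, 1]
/-- the functionals modulo 3 -/
def G2 : Fin 4 → ℤ := ![1, 0, 0, 1]

/-- the value of a functional -/
def dt (L : Fin 4 → ℤ) : (Fin 4 → ℤ) →+ ℤ where
  toFun x := ∑ m, x m * L m
  map_zero' := Finset.sum_eq_zero fun m _ => by rw [Pi.zero_apply, zero_mul]
  map_add' x y := by
    rw [← Finset.sum_add_distrib]
    exact Finset.sum_congr rfl fun m _ => by rw [Pi.add_apply, add_mul]

theorem dt_apply (L x : Fin 4 → ℤ) : dt L x = ∑ m, x m * L m := rfl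

theorem g1_ok : ∀ j, (3 : ℤ) ∣ ∑ m, H92.TD.M3 j m * G1 m - 4 * G1 j := by decide +kernel
theorem g2_ok : ∀ j, (3 : ℤ) ∣ ∑ m, H92.TD.M3 j m * G2 m - 4 * G2 j := by decide +kernel

theorem inj_ok : ∀ i j : Fin 8, (3 : ℤ) ∣ ∑ m, O i m * G1 m - ∑ m, O j m * G1 m →
    (3 : ℤ) ∣ ∑ m, O i m * G2 m - ∑ m, O j m * G2 m → i = j := by decide +kernel

/-- the functional with the values `a`, `b`, `c`, `d` -/
def F4 (a b c d : Fin 7) : Fin 4 → ℤ := ![(a : ℕ), (b : ℕ), (c : ℕ), (d : ℕ)]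

theorem check7 : ∀ a b c d : Fin 7, (∀ j : Fin 4, (7 : ℤ) ∣ ∑ m, H92.TD.M3 j m * F4 a b c d m - 4 * F4 a b c d j) →
    ((7 : ℤ) ∣ ∑ j, (∑ m, O j m * F4 a b c d m) ^ 4) → (a = 0 ∧ b = 0 ∧ c = 0 ∧ d = 0) ∨
      ∀ s : Fin 24, ¬ (7 : ℤ) ∣ ∑ m, vec chevD4 4 s.val m * F4 a b c d m := by decide +kernel

section

variable {W : Type*} [Group W] (cs : CoxeterSystem coxeterD4 W)

theorem rep_simple_O (i : Fin 4) (j : Fin 8) :
    rep cs RGDTwD4.hp.isCartan (cs.simple i) (O j) = O (pm i j) := by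
  rw [rep_simple_eq]
  funext m
  rw [pm_ok, Pi.sub_apply, Pi.smul_apply, smul_eq_mul]
  have e : pairing (cartanOf chevD4 4) i (O j) = ∑ n, Am i n * O j n := by
    unfold pairing
    exact Finset.sum_congr rfl fun n _ => by rw [hA]
  rw [e]
  by_cases hm : m = i
  · subst hm; rw [if_pos rfl, sr_self, mul_one]
  · rw [if_neg hm, sr_ne hm, mul_zero]

/-- **The Weyl group permutes the eight vectors.** -/
theorem exists_perm (w : W) : ∃ π : Equiv.Perm (Fin 8), ∀ j, rep cs RGDTwD4.hp.isCartan w (O j) = O (π j) := by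
  obtain ⟨ω, rfl⟩ := cs.wordProd_surjective w
  induction ω with
  | nil => exact ⟨Equiv.refl _, fun j => by rw [wordProd_nil, map_one, Module.End.one_apply]; rfl⟩
  | cons i ω ih =>
    obtain ⟨π, hπ⟩ := ih
    refine ⟨π.trans ⟨pm i, pm i, pm_inv i, pm_inv i⟩, fun j => ?_⟩
    rw [wordProd_cons, rep_mul_apply, hπ, rep_simple_O]
    rfl

/-- an element of the Weyl group fixing the eight vectors is trivial -/
theorem eq_one_of_O {w : W} (h : ∀ j, rep cs RGDTwD4.hp.isCartan w (O j) = O j) : w = 1 := by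
  refine ChevalleyStructure.CoxeterGeom.eq_one_of_fix cs RGDTwD4.hp.isCartan w fun i => ?_
  have h1 : (2 : ℤ) • (Pi.single i 1 : Fin 4 → ℤ) = ∑ j, Bm i j • O j := by
    funext m
    rw [Pi.smul_apply, Finset.sum_apply, smul_eq_mul, Pi.single_apply]
    exact (bm_ok i m).symm
  have h2 : (2 : ℤ) • rep cs RGDTwD4.hp.isCartan w (Pi.single i 1) = (2 : ℤ) • (Pi.single i 1 : Fin 4 → ℤ) := by
    rw [← map_zsmul, h1, map_sum]
    exact Finset.sum_congr rfl fun j _ => by rw [map_zsmul, h j]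
  funext m
  have h3 := congrFun h2 m
  rw [Pi.smul_apply, Pi.smul_apply, smul_eq_mul, smul_eq_mul] at h3
  omega

/-- **Fixing the two functionals modulo 3.** -/
theorem eq_one_of_chars {w : W} (h1 : ∀ x, (3 : ℤ) ∣ dt G1 (rep cs RGDTwD4.hp.isCartan w x) - dt G1 x)
    (h2 : ∀ x, (3 : ℤ) ∣ dt G2 (rep cs RGDTwD4.hp.isCartan w x) - dt G2 x) : w = 1 := by
  obtain ⟨π, hπ⟩ := exists_perm cs w
  refine eq_one_of_O cs fun j => ?_
  have e1 := h1 (O j)
  have e2 := h2 (O j)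
  rw [hπ, dt_apply, dt_apply] at e1 e2
  rw [hπ, inj_ok _ _ e1 e2]

/-- **Functionals multiplied by 5 by an element of the Weyl group.** -/
theorem sum_four {w : W} {L : (Fin 4 → ℤ)} (h : ∀ x, (7 : ℤ) ∣ 3 * dt L (rep cs RGDTwD4.hp.isCartan w x) - dt L x) :
    (7 : ℤ) ∣ ∑ j, (dt L (O j)) ^ 4 := by
  obtain ⟨π, hπ⟩ := exists_perm cs w
  have h1 : ∀ j, (7 : ℤ) ∣ 81 * dt L (O (π j)) ^ 4 - dt L (O j) ^ 4 := by
    intro j
    have e := h (O j)
    rw [hπ] at e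
    have e2 : 81 * dt L (O (π j)) ^ 4 - dt L (O j) ^ 4 = (3 * dt L (O (π j)) - dt L (O j)) *
        ((3 * dt L (O (π j)) + dt L (O j)) * (9 * dt L (O (π j)) ^ 2 + dt L (O j) ^ 2)) := by ring
    rw [e2]
    exact dvd_mul_of_dvd_left e _
  have h2 : (7 : ℤ) ∣ ∑ j, (81 * dt L (O (π j)) ^ 4 - dt L (O j) ^ 4) := Finset.dvd_sum fun j _ => h1 j
  rw [Finset.sum_sub_distrib, ← Finset.mul_sum, Equiv.sum_comp π (fun j => dt L (O j) ^ 4)] at h2
  omega

end

end Cfsg.Agent.H440.EPX
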