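import Cfsg.Agent.H440.EPX.TorN
import Cfsg.Agent.H440.EPX.TdData
import Cfsg.Agent.H92.TD.Spec

/-!
# `³D₄(4)`: rational elements of order 7, for S5745 (helper440)

`gside` : an element `y` of order 7 conjugate to `y ^ 3` commutes with two elements `x₁`, `x₂` of order 3 (or 1); `C(y)` has no
involutions and centralises `x₁`, `x₂`; an element normalising `⟨y⟩` and centralising `x₁`, `x₂` centralises `y`.
-/

set_option autoImplicit false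
set_option linter.unusedSectionVars false

namespace Cfsg.Agent.H440.EPX

open CoxeterSystem Cfsg Cfsg.Lie Cfsg.Lie.ChevalleyDatum
open Cfsg.Agent.ChevalleyStructure Cfsg.Agent.ChevalleyStructure.Elts Cfsg.Agent.ChevalleyStructure.CoxeterGeom
  Cfsg.Agent.ChevalleyStructure.CoxeterGeomTypes Cfsg.Agent.ChevalleyStructure.NPerm
open Cfsg.Agent.Tits.Roots Cfsg.Agent.Tits.Core Cfsg.Agent.Nodes Cfsg.Agent.Nodes.Reps Cfsg.Agent.Nodes.BNOf
  Cfsg.Agent.Nodes.RGDChev Cfsg.Agent.Nodes.Bruhat Cfsg.Agent.Nodes.SubComb Cfsg.Agent.Nodes.Coroot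
open Cfsg.Agent.KFacts.RgdField Cfsg.Agent.KFacts.RgdChevCoord Cfsg.Agent.BpExc.TorCent Cfsg.Agent.BpExc.TorChev
open Cfsg.Agent.GpExc.Field Cfsg.Agent.BpExc.Tow Cfsg.Agent.BpExc.TowChev Cfsg.Agent.BpExc.Fr
  Cfsg.Agent.BpExc.LangFr Cfsg.Agent.LangThm Cfsg.Agent.BpExc Cfsg.Agent.H129.TorusChar Cfsg.Agent.H129.TorusCent
  Cfsg.Agent.H129.TorusTw Cfsg.Agent.H129.TorusMain Cfsg.Agent.H493.PGTorus Cfsg.Agent.H493.PGTwist
open Cfsg.Agent.H129 Cfsg.Agent.H129.WData Cfsg.Agent.H129.TriD4 Cfsg.Agent.H378.CycTab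

universe u

/-- a regular functional modulo 7 -/
def L7 : Fin 4 → ℤ := ![-1, -4, -1, 1]

theorem l7_ok : ∀ j, (7 : ℤ) ∣ ∑ m, H92.TD.M3 j m * L7 m - 4 * L7 j := by decide +kernel

theorem l7_reg : ∀ s : Fin 24, ¬ (7 : ℤ) ∣ ∑ m, vec chevD4 4 s.val m * L7 m := by decide +kernel

theorem dt_sr (L : Fin 4 → ℤ) (j : Fin 4) : dt L (sr j) = L j := by
  rw [dt_apply, Finset.sum_eq_single j]
  · rw [sr_self, one_mul]
  · intro m _ hm
    rw [sr_ne hm, zero_mul]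
  · intro hj
    exact absurd (Finset.mem_univ j) hj

theorem dt_theta {θ : (Fin 4 → ℤ) ≃+ (Fin 4 → ℤ)} (hθ : ∀ j, θ (sr j) = H92.TD.M3 j) {r : ℤ} {L : Fin 4 → ℤ}
    (hL : ∀ j, r ∣ ∑ m, H92.TD.M3 j m * L m - 4 * L j) (x : Fin 4 → ℤ) : r ∣ dt L (θ x) - 4 * dt L x := by
  have h1 : dt L (θ x) = ∑ j, x j * dt L (H92.TD.M3 j) := by
    conv_lhs => rw [IsMC.eq_sum_sr x]
    rw [map_sum, map_sum]
    exact Finset.sum_congr rfl fun j _ => by rw [map_zsmul, map_zsmul, smul_eq_mul, hθ]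
  have h2 : dt L (θ x) - 4 * dt L x = ∑ j, x j * (∑ m, H92.TD.M3 j m * L m - 4 * L j) := by
    rw [h1, dt_apply, Finset.mul_sum, ← Finset.sum_sub_distrib]
    exact Finset.sum_congr rfl fun j _ => by rw [dt_apply]; ring
  rw [h2]
  exact Finset.dvd_sum fun j _ => dvd_mul_of_dvd_right (hL j) _

section Core

variable {k : Type u} [Field k] {W : Type*} [Group W] [Finite W] (cs : CoxeterSystem coxeterD4 W)

/-- the centraliser of a regular element of order 7 -/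
theorem cent_of_reg (hk : LocFin k) (p : ℕ) [Fact p.Prime] [CharP k p] (hW : ¬ 7 ∣ Nat.card W)
    {t : ↥(chevD4.group k)} (ht : t ∈ TT chevD4 k) (h7 : ∀ a, cX RGDTwD4.hp t a ^ 7 = 1)
    (hreg : ∀ a, IsRoot cs RGDTwD4.hp.isCartan a → cX RGDTwD4.hp t a ≠ 1) {c : ↥(chevD4.group k)}
    (hc : c * t = t * c) : c ∈ TT chevD4 k := by
  refine mem_TT_of_comm RGDTwD4.hp cs ht hk p hreg (fun w hw => ?_) hc
  have hE : {a | IsRoot cs RGDTwD4.hp.isCartan a ∧ cX RGDTwD4.hp t a ^ 1 = 1} = ∅ := by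
    rw [Set.eq_empty_iff_forall_notMem]
    rintro a ⟨ha, ha1⟩
    exact hreg a ha (by rwa [pow_one] at ha1)
  refine stab_eq_one RGDTwD4.hp cs ht hk p (m := 1) (r := 7) (by norm_num) hW (fun a _ => by rw [one_mul]; exact h7 a)
    (fun a ha h1 => ?_) ?_ hw
  · exact absurd (by rwa [pow_one] at h1) (hreg a ha)
  · rw [hE]
    intro a ha
    exact absurd ha (Set.notMem_empty a)

variable [IsAlgClosed k] {p e : ℕ} [Fact p.Prime] [CharP k p]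
  {σ : MulAut ↥(chevD4.group k)} {g : (Fin 4 → ℤ) ≃+ (Fin 4 → ℤ)} {G0 : Type*} [Group G0]
  {e0 : G0 →* ↥(chevD4.group k)}

theorem core (hk : LocFin k) (he : 0 < e) (hσ : IsFrob p e σ)
    (F : Fr cs RGDTwD4.hp.isCartan (TT chevD4 k) (XX chevD4 4 k) σ g) (h4 : p ^ e = 4)
    (he0 : Function.Injective e0) (hfix : ∀ y, σ (e0 y) = e0 y) (hd : ∀ y, σ y = y → y ∈ e0.range)
    (hW : ¬ 7 ∣ Nat.card W) {w : W} (hw : ∀ j, rep cs RGDTwD4.hp.isCartan w (g (sr j)) = H92.TD.M3 j) :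
    ∃ x0 x1 x2 : G0, x0 ^ 7 = 1 ∧ x0 ≠ 1 ∧ x1 ^ 3 = 1 ∧ x2 ^ 3 = 1 ∧ ∀ y : G0, y ^ 7 = 1 → y ≠ 1 → y * x0 = x0 * y →
      (∃ v, v * y = y ^ 3 * v) → y * x1 = x1 * y ∧ y * x2 = x2 * y ∧ x1 * x2 = x2 * x1 ∧
      (∀ c, c * y = y * c → (c ^ 2 = 1 → c = 1) ∧ c * x1 = x1 * c ∧ c * x2 = x2 * c) ∧
      ∀ (v : G0) (m : ℕ), v * x1 = x1 * v → v * x2 = x2 * v → v * y = y ^ m * v → v * y = y * v := by
  have hp2 : p = 2 := by
    have h1 : p ∣ 2 ^ 2 := by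
      rw [show (2 : ℕ) ^ 2 = 4 by norm_num, ← h4]
      exact dvd_pow_self p he.ne'
    exact (Nat.prime_dvd_prime_iff_eq Fact.out Nat.prime_two).1 ((Fact.out : p.Prime).dvd_of_dvd_pow h1)
  have h2k : (2 : k) = 0 := by
    have := CharP.cast_eq_zero k p
    rw [hp2] at this
    exact_mod_cast this
  have hn7 : NeZero ((7 : ℕ) : k) := ⟨by
    rw [Ne, CharP.cast_eq_zero_iff k p, hp2]; norm_num⟩
  have hn3 : NeZero ((3 : ℕ) : k) := ⟨by
    rw [Ne, CharP.cast_eq_zero_iff k p, hp2]; norm_num⟩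
  obtain ⟨u7, hu7⟩ := HasEnoughRootsOfUnity.exists_primitiveRoot k 7
  obtain ⟨u3, hu3⟩ := HasEnoughRootsOfUnity.exists_primitiveRoot k 3
  have h70 : u7 ≠ 0 := hu7.ne_zero (by norm_num)
  have h30 : u3 ≠ 0 := hu3.ne_zero (by norm_num)
  obtain ⟨n, z, hz, hσ', F'⟩ := exists_z RGDTwD4.hp cs hk he hσ F w
  have hθ : ∀ j, (g.trans (repAut cs RGDTwD4.hp.isCartan w)) (sr j) = H92.TD.M3 j := hw
  have h4' : ((p ^ e : ℕ) : ℤ) = 4 := by rw [h4]; rfl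
  have ex : ∀ {r : ℕ} {u : k} (_ : IsPrimitiveRoot u r) (_ : r ≠ 0) {L : Fin 4 → ℤ}
      (_ : ∀ j, (r : ℤ) ∣ ∑ m, H92.TD.M3 j m * L m - 4 * L j),
      ∃ t ∈ TT chevD4 k, (MulAut.conj n * σ) t = t ∧ ∀ x, cX RGDTwD4.hp t x = u ^ dt L x := by
    intro r u hu hr L hL
    exact exists_t2 RGDTwD4.hp cs hσ' F' TorusChar.invC_D4 (by norm_num) hu hr fun x => by
      rw [h4']; exact dt_theta hθ hL x
  obtain ⟨t0, ht0, hs0, hc0⟩ := ex hu7 (by norm_num) (L := L7) l7_ok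
  obtain ⟨s1, ht1, hs1, hc1⟩ := ex hu3 (by norm_num) (L := G1) g1_ok
  obtain ⟨s2, ht2, hs2, hc2⟩ := ex hu3 (by norm_num) (L := G2) g2_ok
  -- the homomorphism
  let E : G0 →* ↥(chevD4.group k) := (MulAut.conj z⁻¹).toMonoidHom.comp e0
  have hE : ∀ c, E c = z⁻¹ * e0 c * z⁻¹⁻¹ := fun c => rfl
  have hEi : Function.Injective E := (MulAut.conj z⁻¹).injective.comp he0
  have hEf : ∀ c, (MulAut.conj n * σ) (E c) = E c := by
    intro c
    rw [hE, inv_inv]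
    show n * σ (z⁻¹ * e0 c * z) * n⁻¹ = _
    rw [map_mul, map_mul, map_inv, hfix, hz]
    group
  have hEs : ∀ t, (MulAut.conj n * σ) t = t → ∃ x, E x = t := by
    intro t ht
    obtain ⟨x, hx⟩ := hd _ (fix_conj hz ht)
    refine ⟨x, ?_⟩
    rw [hE, hx]; group
  obtain ⟨x0, hx0⟩ := hEs t0 hs0
  obtain ⟨x1, hx1⟩ := hEs s1 hs1
  obtain ⟨x2, hx2⟩ := hEs s2 hs2
  have hroot : ∀ {a}, IsRoot cs RGDTwD4.hp.isCartan a → ∃ s : Fin 24, a = vec chevD4 4 s.val := by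
    intro a ha
    obtain ⟨s, hs, rfl⟩ := (isRoot_iff RGDTwD4.hp cs a).1 ha
    exact ⟨⟨s, hs⟩, rfl⟩
  have h7z : ∀ z : ℤ, u7 ^ z = 1 ↔ (7 : ℤ) ∣ z := fun z => hu7.zpow_eq_one_iff_dvd z
  have h3z : ∀ z : ℤ, u3 ^ z = 1 ↔ (3 : ℤ) ∣ z := fun z => hu3.zpow_eq_one_iff_dvd z
  have hpow1 : ∀ {r : ℕ} {u : k} (_ : IsPrimitiveRoot u r) {t : ↥(chevD4.group k)} {L : Fin 4 → ℤ}
      (_ : t ∈ TT chevD4 k) (_ : ∀ x, cX RGDTwD4.hp t x = u ^ dt L x), t ^ r = 1 := by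
    intro r u hu t L ht hc
    refine cX_inj RGDTwD4.hp (pow_mem ht r) (one_mem _) fun i => ?_
    rw [cX_pow RGDTwD4.hp ht, cX_one, hc, ← zpow_natCast, ← zpow_mul, hu.zpow_eq_one_iff_dvd]
    exact dvd_mul_left _ _
  have hreg0 : ∀ a, IsRoot cs RGDTwD4.hp.isCartan a → cX RGDTwD4.hp t0 a ≠ 1 := by
    intro a ha h1
    obtain ⟨s, rfl⟩ := hroot ha
    rw [hc0, h7z, dt_apply] at h1
    exact l7_reg s h1
  have hcent : ∀ {t : ↥(chevD4.group k)}, t ∈ TT chevD4 k → t ^ 7 = 1 →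
      (∀ a, IsRoot cs RGDTwD4.hp.isCartan a → cX RGDTwD4.hp t a ≠ 1) → ∀ {c : ↥(chevD4.group k)}, c * t = t * c →
      c ∈ TT chevD4 k := by
    intro t ht h7 hreg c hc
    exact cent_of_reg cs hk p hW ht (fun a => by rw [← cX_pow RGDTwD4.hp ht, h7, cX_one]) hreg hc
  have hTc : ∀ {a b : G0}, E a ∈ TT chevD4 k → E b ∈ TT chevD4 k → a * b = b * a := by
    intro a b ha hb
    apply hEi
    rw [map_mul, map_mul]
    exact TT_comm RGDTwD4.hp _ ha _ hb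
  have hmap : ∀ {a b c d : G0}, a * b = c * d → E a * E b = E c * E d := by
    intro a b c d h
    rw [← map_mul, ← map_mul, h]
  refine ⟨x0, x1, x2, ?_, ?_, ?_, ?_, ?_⟩
  · apply hEi
    rw [map_pow, map_one, hx0]
    exact hpow1 hu7 ht0 hc0
  · rintro rfl
    rw [map_one] at hx0
    have h1 := hreg0 (sr 0) (isRoot_sr cs RGDTwD4.hp.isCartan 0)
    rw [← hx0, cX_one] at h1
    exact h1 rfl
  · apply hEi
    rw [map_pow, map_one, hx1]
    exact hpow1 hu3 ht1 hc1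
  · apply hEi
    rw [map_pow, map_one, hx2]
    exact hpow1 hu3 ht2 hc2
  intro y hy7 hy1 hyx ⟨v0, hv0⟩
  -- `y` in the torus
  have ht : E y ∈ TT chevD4 k := hcent ht0 (hpow1 hu7 ht0 hc0) hreg0 (by rw [← hx0]; exact hmap hyx)
  have ht7 : E y ^ 7 = 1 := by rw [← map_pow, hy7, map_one]
  have hch7 : ∀ x, cX RGDTwD4.hp (E y) x ^ 7 = 1 := fun x => by
    rw [← cX_pow RGDTwD4.hp ht, ht7, cX_one]
  have hex : ∀ j : Fin 4, ∃ a : Fin 7, cX RGDTwD4.hp (E y) (sr j) = u7 ^ (a : ℕ) := by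
    intro j
    obtain ⟨i, hi, h⟩ := hu7.eq_pow_of_pow_eq_one (hch7 (sr j))
    exact ⟨⟨i, hi⟩, h.symm⟩
  choose A hA using hex
  set L : Fin 4 → ℤ := F4 (A 0) (A 1) (A 2) (A 3) with hLdef
  have hLj : ∀ j, L j = ((A j : ℕ) : ℤ) := by
    intro j
    fin_cases j <;> rfl
  have hc : ∀ x, cX RGDTwD4.hp (E y) x = u7 ^ dt L x := by
    refine (isMC_cX RGDTwD4.hp ht).ext ⟨by rw [map_zero, zpow_zero], fun x y => by rw [map_add, zpow_add₀ h70]⟩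
      fun i => ?_
    rw [hA, dt_sr, hLj, zpow_natCast]
  have heig : ∀ j : Fin 4, (7 : ℤ) ∣ ∑ m, H92.TD.M3 j m * L m - 4 * L j := by
    intro j
    have h1 := cX_sigma RGDTwD4.hp cs hσ' F' ht (sr j)
    rw [hEf y, hθ j, hc, hc, h4, ← zpow_natCast, ← zpow_mul] at h1
    have h2 : u7 ^ (dt L (H92.TD.M3 j) - dt L (sr j) * ((4 : ℕ) : ℤ)) = 1 := by
      rw [zpow_sub₀ h70, h1, div_self (zpow_ne_zero _ h70)]
    rw [h7z, dt_sr, dt_apply] at h2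
    rw [mul_comm 4 (L j)]
    exact h2
  obtain ⟨w1, hw1⟩ := conj_char RGDTwD4.hp cs hk p (s := E y) (t := E y ^ 3) (c := E v0) ht (pow_mem ht 3)
    (by rw [← map_pow]; exact hmap hv0)
  have h3L : ∀ x, (7 : ℤ) ∣ 3 * dt L (rep cs RGDTwD4.hp.isCartan w1 x) - dt L x := by
    intro x
    have h1 := hw1 x
    rw [cX_pow RGDTwD4.hp ht, hc, hc, ← zpow_natCast, ← zpow_mul] at h1
    have h2 : u7 ^ (dt L (rep cs RGDTwD4.hp.isCartan w1 x) * ((3 : ℕ) : ℤ) - dt L x) = 1 := by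
      rw [zpow_sub₀ h70, h1, div_self (zpow_ne_zero _ h70)]
    rw [h7z] at h2
    rw [mul_comm 3]
    exact h2
  have hreg : ∀ a, IsRoot cs RGDTwD4.hp.isCartan a → cX RGDTwD4.hp (E y) a ≠ 1 := by
    rcases check7 (A 0) (A 1) (A 2) (A 3) heig (sum_four cs h3L) with h | h
    · exfalso
      apply hy1
      apply hEi
      rw [map_one]
      refine cX_inj RGDTwD4.hp ht (one_mem _) fun i => ?_
      have h0 : L i = 0 := by
        rw [hLj]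
        obtain ⟨a, b, c, d⟩ := h
        fin_cases i
        · show (((A 0 : Fin 7) : ℕ) : ℤ) = 0
          rw [a]; rfl
        · show (((A 1 : Fin 7) : ℕ) : ℤ) = 0
          rw [b]; rfl
        · show (((A 2 : Fin 7) : ℕ) : ℤ) = 0
          rw [c]; rfl
        · show (((A 3 : Fin 7) : ℕ) : ℤ) = 0
          rw [d]; rfl
      rw [hc, dt_sr, h0, zpow_zero, cX_one]
    · intro a ha h1
      obtain ⟨s, rfl⟩ := hroot ha
      rw [hc, h7z, dt_apply] at h1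
      exact h s h1
  have h1T : E x1 ∈ TT chevD4 k := by rw [hx1]; exact ht1
  have h2T : E x2 ∈ TT chevD4 k := by rw [hx2]; exact ht2
  refine ⟨hTc ht h1T, hTc ht h2T, hTc h1T h2T, fun c hcy => ?_, fun v m hv1 hv2 hvy => ?_⟩
  · have hcT : E c ∈ TT chevD4 k := hcent ht ht7 hreg (hmap hcy)
    refine ⟨fun hc2 => ?_, hTc hcT h1T, hTc hcT h2T⟩
    apply hEi
    rw [map_one]
    refine cX_inj RGDTwD4.hp hcT (one_mem _) fun i => ?_
    have h1 : cX RGDTwD4.hp (E c) (sr i) ^ 2 = 1 := by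
      rw [← cX_pow RGDTwD4.hp hcT, ← map_pow, hc2, map_one, cX_one]
    rw [cX_one]
    have h3 : (cX RGDTwD4.hp (E c) (sr i) - 1) ^ 2 = 0 := by
      linear_combination h1 + (1 - cX RGDTwD4.hp (E c) (sr i)) * h2k
    exact sub_eq_zero.1 ((pow_eq_zero_iff two_ne_zero).1 h3)
  · obtain ⟨w2, hw2, hw3⟩ := norm_char RGDTwD4.hp cs hk p (s := E y) (t := E y ^ m) (c := E v) ht (pow_mem ht m)
      (by rw [← map_pow]; exact hmap hvy) hreg
    have key : ∀ {s : ↥(chevD4.group k)} {G : Fin 4 → ℤ}, s ∈ TT chevD4 k → E v * s = s * E v →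
        (∀ x, cX RGDTwD4.hp s x = u3 ^ dt G x) →
        ∀ x, (3 : ℤ) ∣ dt G (rep cs RGDTwD4.hp.isCartan w2 x) - dt G x := by
      intro s G hs hvs hcs x
      have h1 := (hw2 s hs).2 x
      have h2 : E v * s * (E v)⁻¹ = s := by rw [hvs]; group
      rw [h2, hcs, hcs] at h1
      rw [← h3z, zpow_sub₀ h30, h1, div_self (zpow_ne_zero _ h30)]
    have h5 : w2 = 1 := eq_one_of_chars cs (key ht1 (by rw [← hx1]; exact hmap hv1) hc1)
      (key ht2 (by rw [← hx2]; exact hmap hv2) hc2)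
    exact hTc (hw3 h5) ht

end Core

/-- **`³D₄(4)`.** -/
theorem gtor {K : Type u} [Field K] [Fintype K] (hK : Fintype.card K = 4 ^ 3) :
    ∃ x0 x1 x2 : ↥(twistedD4 K 4), x0 ^ 7 = 1 ∧ x0 ≠ 1 ∧ x1 ^ 3 = 1 ∧ x2 ^ 3 = 1 ∧
      ∀ y : ↥(twistedD4 K 4), y ^ 7 = 1 → y ≠ 1 → y * x0 = x0 * y →
      (∃ v, v * y = y ^ 3 * v) → y * x1 = x1 * y ∧ y * x2 = x2 * y ∧ x1 * x2 = x2 * x1 ∧
      (∀ c, c * y = y * c → (c ^ 2 = 1 → c = 1) ∧ c * x1 = x1 * c ∧ c * x2 = x2 * c) ∧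
      ∀ (v : ↥(twistedD4 K 4)) (m : ℕ), v * x1 = x1 * v → v * x2 = x2 * v → v * y = y ^ m * v → v * y = y * v := by
  have := H493.PGD4T.finW
  have hq : IsPrimePow 4 := ⟨2, 2, Nat.prime_two.prime, by norm_num, by norm_num⟩
  obtain ⟨p, e, hpF, hpk, he, hqe, hk⟩ := H493.PGD4T.setup hq hK
  have hW : ¬ 7 ∣ Nat.card coxeterD4.Group := by
    rw [ChevalleyStructure.WeylData.certD4.card_group.trans ChevalleyStructure.WeylData.size_D4]
    norm_num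
  exact core coxeterD4.toCoxeterSystem hk he isFrob_tau (fr_tau _) hqe.symm
    (embT_injective (algebraMap K (AlgebraicClosure K)) hq hK)
    (fun y => tau_embT _ hqe hq hK y) (fun y hy => tau_range _ hqe hq hK hy) hW
    (H493.PGD4T.lin _ H92.TD.ch3 H92.TD.th3)

end Cfsg.Agent.H440.EPX
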