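import Cfsg.Agent.H440.EPX.TdCore
import Cfsg.Agent.H440.EPX.TdKill
import Cfsg.Agent.H901.EP.RowGrp
import Cfsg.Agent.H226.EX.Glue
import Cfsg.Agent.H805.EPX.Rows

/-!
# S5745: the row `J2` in `³D₄(4)` (helper440)

(PS) at the prime 7: `y ∈ H` of order 7 is conjugate to `y ^ 3`, so it is regular in the torus `21 × 21`; every element of
the torus of order 3 is centralised by an element of `N_H(⟨y⟩)` outside `C(y)`, so all of them are by one; but the
centraliser of the elements of order 3 of the torus is the torus.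
-/

set_option autoImplicit false
set_option linter.unusedSectionVars false

namespace Cfsg.Agent.H440.EPX

open Cfsg Cfsg.Agent.H805.EPX Cfsg.Agent.H209.EPX Cfsg.Agent.H284

/-- elements of order 7 are conjugate into the torus -/
theorem exists_conj {K : Type} [Field K] [Fintype K] (hK : Fintype.card K = 4 ^ 3) {x y : ↥(Lie.twistedD4 K 4)}
    (hx : x ^ 7 = 1) (hy : y ^ 7 = 1) : ∃ h : ↥(Lie.twistedD4 K 4), h * y * h⁻¹ * x = x * (h * y * h⁻¹) := by
  have : Fact (Nat.Prime 7) := ⟨by norm_num⟩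
  have hp : ∀ {z : ↥(Lie.twistedD4 K 4)}, z ^ 7 = 1 → IsPGroup 7 (Subgroup.zpowers z) := by
    rintro z hz ⟨_, k, rfl⟩
    refine ⟨1, Subtype.ext ?_⟩
    show ((z ^ k) ^ 7 ^ 1) = 1
    rw [pow_one, ← zpow_natCast, zpow_comm, zpow_natCast, hz, one_zpow]
  obtain ⟨P, hP⟩ := (hp hx).exists_le_sylow
  obtain ⟨Q, hQ⟩ := (hp hy).exists_le_sylow
  obtain ⟨h, hh⟩ := MulAction.exists_smul_eq ↥(Lie.twistedD4 K 4) Q P
  refine ⟨h, ?_⟩
  have h1 : h * y * h⁻¹ ∈ (P : Subgroup ↥(Lie.twistedD4 K 4)) := by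
    rw [← hh, Sylow.coe_subgroup_smul, Subgroup.mem_pointwise_smul_iff_inv_smul_mem]
    have h2 : (MulAut.conj h)⁻¹ • (h * y * h⁻¹) = y := by
      show (MulAut.conj h)⁻¹ (h * y * h⁻¹) = y
      rw [MulAut.conj_inv_apply]; group
    rw [h2]
    exact hQ (Subgroup.mem_zpowers y)
  exact Cfsg.Agent.H92.TD.comm_sub hK (r := 7) (by norm_num) (by norm_num) (by norm_num) P P.2 _ h1 _
    (hP (Subgroup.mem_zpowers x))

/-- **The row.** -/
theorem td4_4_J2 (K : Type) [Field K] [Fintype K] [IsSimpleGroup ↥(Lie.twistedD4 K 4)] (hK : Fintype.card K = 64) :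
    NoRow (fun T _ => Spor.IsoJ2 T) ↥(Lie.twistedD4 K 4) := by
  intro H N T _ e h hJ
  have hK' : Fintype.card K = 4 ^ 3 := by rw [hK]; norm_num
  have hJN : Spor.IsoJ2 N := by
    obtain ⟨f⟩ := hJ
    exact ⟨(e.trans (MulEquiv.funUnique (Fin 1) T)).trans f⟩
  have hcent : ∀ a ∈ H, (∀ n ∈ N, a * n = n * a) → a = 1 := by
    intro a _ hc
    have h1 : a ∈ Subgroup.centralizer (N : Set ↥(Lie.twistedD4 K 4)) := by
      rw [Subgroup.mem_centralizer_iff]
      intro n hn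
      exact (hc n hn).symm
    rw [h.cent] at h1
    exact Subgroup.mem_bot.1 h1
  obtain ⟨y, u, hyN, huN, hy, huy, -, hcase⟩ := Cfsg.Agent.H901.EP.facts (A := H) (N := N) h.le h.nrm hcent hJN
  have hept := Cfsg.Agent.H226.EX.ept_of_eps h
  have hab := Cfsg.Agent.H226.EX.hab_of_eps h
  have hyH : y ∈ H := h.le hyN
  have hy7 : y ^ 7 = 1 := by rw [← hy]; exact pow_orderOf_eq_one y
  have hy1 : y ≠ 1 := by
    rintro rfl
    rw [orderOf_one] at hy
    omega
  have hC : ∀ c ∈ H, c * y = y * c → c ^ 14 = 1 := by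
    intro c hc hcy
    have h1 : Nat.card (H ⊓ Subgroup.centralizer {y} : Subgroup ↥(Lie.twistedD4 K 4)) ∣ 14 := by
      rcases hcase with h2 | h2
      · rw [h2.2]; norm_num
      · exact h2.2
    have h2 : c ∈ (H ⊓ Subgroup.centralizer {y} : Subgroup ↥(Lie.twistedD4 K 4)) :=
      ⟨hc, Subgroup.mem_centralizer_singleton_iff.2 hcy⟩
    have h3 := (Subgroup.orderOf_dvd_natCard _ h2).trans h1
    exact orderOf_dvd_iff_pow_eq_one.1 h3
  obtain ⟨x0, x1, x2, a0, a1, a2, a3, hall⟩ := gtor hK'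
  obtain ⟨b, hb⟩ := exists_conj hK' a0 hy7
  obtain ⟨c1, c2, c3, c4, c5⟩ := hall (b * y * b⁻¹) (by rw [conj_pow, hy7]; group)
    (fun e => hy1 (by simpa using e)) hb ⟨b * u * b⁻¹, by
      rw [conj_pow, ← huy]; group⟩
  -- transport
  have tr : ∀ {p q : ↥(Lie.twistedD4 K 4)}, b * p * b⁻¹ * q = q * (b * p * b⁻¹) ↔
      p * (b⁻¹ * q * b) = b⁻¹ * q * b * p := by
    intro p q
    constructor
    · intro h1
      calc p * (b⁻¹ * q * b) = b⁻¹ * (b * p * b⁻¹ * q) * b := by group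
        _ = b⁻¹ * (q * (b * p * b⁻¹)) * b := by rw [h1]
        _ = _ := by group
    · intro h1
      calc b * p * b⁻¹ * q = b * (p * (b⁻¹ * q * b)) * b⁻¹ := by group
        _ = b * (b⁻¹ * q * b * p) * b⁻¹ := by rw [h1]
        _ = _ := by group
  have tr2 : ∀ {p q : ↥(Lie.twistedD4 K 4)}, b * p * b⁻¹ * (b * q * b⁻¹) = b * q * b⁻¹ * (b * p * b⁻¹) ↔
      p * q = q * p := by
    intro p q
    rw [tr]
    have h1 : b⁻¹ * (b * q * b⁻¹) * b = q := by group
    rw [h1]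
  refine kill (H := H) (y := y) (g := u) (x1 := b⁻¹ * x1 * b) (x2 := b⁻¹ * x2 * b) (h.le huN) hy huy hC
    (fun x hx hxy => Cfsg.Agent.H901.EP.ps_j2 hept hab hy hyH hcase hx hxy) ?_ ?_ (tr.1 c1) (tr.1 c2) ?_ ?_ ?_
  · have := conj_pow (a := b⁻¹) (b := x1) (i := 3)
    rw [inv_inv] at this
    rw [this, a2]; group
  · have := conj_pow (a := b⁻¹) (b := x2) (i := 3)
    rw [inv_inv] at this
    rw [this, a3]; group
  · calc b⁻¹ * x1 * b * (b⁻¹ * x2 * b) = b⁻¹ * (x1 * x2) * b := by group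
      _ = b⁻¹ * (x2 * x1) * b := by rw [c3]
      _ = _ := by group
  · intro c hc
    obtain ⟨d1, d2, d3⟩ := c4 (b * c * b⁻¹) (tr2.2 hc)
    refine ⟨fun hc2 => ?_, tr.1 d2, tr.1 d3⟩
    have h1 := d1 (by rw [conj_pow, hc2]; group)
    simpa using h1
  · intro v m h1 h2 h3
    refine tr2.1 (c5 (b * v * b⁻¹) m (tr.2 h1) (tr.2 h2) ?_)
    rw [conj_pow]
    calc b * v * b⁻¹ * (b * y * b⁻¹) = b * (v * y) * b⁻¹ := by group
      _ = b * (y ^ m * v) * b⁻¹ := by rw [h3]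
      _ = _ := by group

end Cfsg.Agent.H440.EPX
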