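import Cfsg.Agent.H92.TD.Reg

/-!
# Conjugation of torus elements, for S5745 (helper440)

* `exists_t2` : elements of a twisted torus with given characters;
* `conj_char` : two conjugate elements of the torus are conjugate under the Weyl group;
* `norm_char` : an element conjugating a torus element into a regular one acts on the torus through the Weyl group.
-/

set_option autoImplicit false
set_option linter.unusedSectionVars false

namespace Cfsg.Agent.H440.EPX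

open CoxeterSystem Cfsg Cfsg.Lie Cfsg.Lie.ChevalleyDatum
open Cfsg.Agent.ChevalleyStructure Cfsg.Agent.ChevalleyStructure.Elts Cfsg.Agent.ChevalleyStructure.CoxeterGeom
  Cfsg.Agent.ChevalleyStructure.CoxeterGeomTypes Cfsg.Agent.ChevalleyStructure.NPerm
open Cfsg.Agent.Tits.Roots Cfsg.Agent.Tits.Core Cfsg.Agent.Nodes Cfsg.Agent.Nodes.Reps Cfsg.Agent.Nodes.BNOf
  Cfsg.Agent.Nodes.RGDChev Cfsg.Agent.Nodes.Bruhat Cfsg.Agent.Nodes.SubComb Cfsg.Agent.Nodes.Coroot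
open Cfsg.Agent.KFacts.RgdField Cfsg.Agent.KFacts.RgdChevCoord Cfsg.Agent.BpExc.TorCent Cfsg.Agent.BpExc.TorChev
open Cfsg.Agent.GpExc.Field Cfsg.Agent.BpExc.Tow Cfsg.Agent.BpExc.TowChev Cfsg.Agent.BpExc.Fr
  Cfsg.Agent.BpExc.LangFr Cfsg.Agent.LangThm Cfsg.Agent.BpExc Cfsg.Agent.H129.TorusChar Cfsg.Agent.H129.TorusCent
  Cfsg.Agent.H129.TorusTw Cfsg.Agent.H129.TorusMain Cfsg.Agent.H493.PGTorus Cfsg.Agent.H493.PGTwist
open Cfsg.Agent.H129 Cfsg.Agent.H129.WData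

universe u

variable {D : ChevalleyDatum} {l : ℕ} {M : CoxeterMatrix (Fin l)} (hp : IsType D l M) {k : Type u} [Field k]
  {W : Type*} [Group W] (cs : CoxeterSystem M W)

section Tw

variable [IsAlgClosed k] {p e : ℕ} [Fact p.Prime] [CharP k p]
  {σ : MulAut ↥(D.group k)} {g : (Fin l → ℤ) ≃+ (Fin l → ℤ)}

/-- torus elements with all the characters -/
theorem exists_t2 (hσ : IsFrob p e σ) (F : Fr cs hp.isCartan (TT D k) (XX D l k) σ g) {d' : ℕ}
    {B' : Fin l → Fin l → ℤ} (hB : InvC D l d' B') (hd' : d' ≠ 0) {L : (Fin l → ℤ) →+ ℤ} {r : ℕ} {u : k}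
    (hu : IsPrimitiveRoot u r) (hr : r ≠ 0) (hL : ∀ x, (r : ℤ) ∣ L (g x) - ((p ^ e : ℕ) : ℤ) * L x) :
    ∃ t ∈ TT D k, σ t = t ∧ ∀ x, cX hp t x = u ^ L x := by
  have hu0 : u ≠ 0 := hu.ne_zero hr
  have hMC : IsMC (fun x : Fin l → ℤ => u ^ L x) :=
    ⟨by rw [map_zero, zpow_zero], fun x y => by rw [map_add, zpow_add₀ hu0]⟩
  obtain ⟨t, ht, hcX⟩ := exists_cX hp hB hd' hMC fun i =>
    IsAlgClosed.exists_pow_nat_eq _ (Nat.pos_of_ne_zero hd')
  have hone : ∀ z : ℤ, u ^ z = 1 ↔ (r : ℤ) ∣ z := fun z => hu.zpow_eq_one_iff_dvd z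
  have hσt : σ t ∈ TT D k := (F.tor t).2 ht
  refine ⟨t, ht, ?_, hcX⟩
  refine cX_inj hp hσt ht fun i => ?_
  have h1 : sr i = g (g.symm (sr i)) := (g.apply_symm_apply _).symm
  rw [h1, cX_sigma hp cs hσ F ht, hcX, hcX, ← zpow_natCast, ← zpow_mul]
  obtain ⟨N, hN⟩ := hL (g.symm (sr i))
  have h2 : L (g (g.symm (sr i))) = L (g.symm (sr i)) * ((p ^ e : ℕ) : ℤ) + (r : ℤ) * N := by
    rw [← hN]; ring
  rw [h2, zpow_add₀ hu0, (hone ((r : ℤ) * N)).2 (dvd_mul_right _ _), mul_one]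

end Tw

/-- **Conjugation in the group, of elements of the torus.** -/
theorem form [Finite W] (hk : LocFin k) (p : ℕ) [Fact p.Prime] [CharP k p] {s t c : ↥(D.group k)}
    (hs : s ∈ TT D k) (ht : t ∈ TT D k) (hc : c * s = t * c) :
    ∃ (w : W) (m n : ↥(D.group k)), (∀ y ∈ TT D k, n * y * n⁻¹ ∈ TT D k ∧
        ∀ x, cX hp (n * y * n⁻¹) (rep cs hp.isCartan w x) = cX hp y x) ∧ (w = 1 → n ∈ TT D k) ∧ n * s = t * n ∧
      c = m * n ∧ ((∀ a, IsRoot cs hp.isCartan a → cX hp t a ≠ 1) → m = 1) := by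
  have H := tow hp cs hk p
  have C := coordsL hp cs hk p
  rw [← TL_eq hp hk, ← XL_eq hp hk] at C
  have hs' : s ∈ TL (Tj hp (k := k)) := by rw [TL_eq hp hk]; exact hs
  have ht' : t ∈ TL (Tj hp (k := k)) := by rw [TL_eq hp hk]; exact ht
  have hcG : c ∈ GG cs hp.isCartan (TL (Tj hp (k := k))) (XL (Xj hp)) := by
    rw [GG_eq_top hp cs hk]; exact Subgroup.mem_top c
  obtain ⟨m, hm, w, n, hn, hnt, e⟩ := BpExc.Fr.exists_form H C hs' ht' hcG hc
  refine ⟨w, m, n, fun y hy => ?_, ?_, hnt, e, fun h1 => ?_⟩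
  · have hy' : y ∈ TL (Tj hp (k := k)) := by rw [TL_eq hp hk]; exact hy
    have h2 : n * y * n⁻¹ ∈ TL (Tj hp (k := k)) := (Subgroup.mem_normalizer_iff.1 hn.mem_normalizer y).1 hy'
    have h3 : n * y * n⁻¹ ∈ TT D k := by rwa [TL_eq hp hk] at h2
    refine ⟨h3, fun x => ?_⟩
    refine ((isMC_cX hp h3).comp (rep cs hp.isCartan w).toAddMonoidHom).ext (isMC_cX hp hy) (fun i => ?_) x
    show cX hp (n * y * n⁻¹) (rep cs hp.isCartan w (sr i)) = _
    rw [cX_root hp cs h3 ((isRoot_sr cs hp.isCartan i).act w), cX_sr]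
    exact C.chi_rp H.nsys hn (isRoot_sr cs hp.isCartan i) hy'
  · rintro rfl
    have h3 := hn.mem_of_one
    rwa [TL_eq hp hk] at h3
  · have hS : Sx cs hp.isCartan (ch hp) t = ∅ := by
      rw [Set.eq_empty_iff_forall_notMem]
      rintro a ⟨ha, h3⟩
      exact h1 a ha (by rw [cX_root hp cs ht ha]; exact h3)
    unfold TorCent.MM at hm
    rw [hS] at hm
    have h3 : RGD.Sup (XL (Xj hp (k := k))) (∅ : Set (Fin l → ℤ)) ≤ ⊥ := RGD.Sup_le fun z hz => absurd hz (Set.notMem_empty z)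
    exact Subgroup.mem_bot.1 (h3 hm)

/-- **Conjugate elements of the torus.** -/
theorem conj_char [Finite W] (hk : LocFin k) (p : ℕ) [Fact p.Prime] [CharP k p] {s t c : ↥(D.group k)}
    (hs : s ∈ TT D k) (ht : t ∈ TT D k) (hc : c * s = t * c) :
    ∃ w : W, ∀ x, cX hp t (rep cs hp.isCartan w x) = cX hp s x := by
  obtain ⟨w, m, n, h1, -, h2, -, -⟩ := form hp cs hk p hs ht hc
  refine ⟨w, fun x => ?_⟩
  have h3 := (h1 s hs).2 x
  have h4 : n * s * n⁻¹ = t := by rw [h2]; group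
  rwa [h4] at h3

/-- **Elements normalising the torus.** -/
theorem norm_char [Finite W] (hk : LocFin k) (p : ℕ) [Fact p.Prime] [CharP k p] {s t c : ↥(D.group k)}
    (hs : s ∈ TT D k) (ht : t ∈ TT D k) (hc : c * s = t * c) (h : ∀ a, IsRoot cs hp.isCartan a → cX hp s a ≠ 1) :
    ∃ w : W, (∀ y ∈ TT D k, c * y * c⁻¹ ∈ TT D k ∧
      ∀ x, cX hp (c * y * c⁻¹) (rep cs hp.isCartan w x) = cX hp y x) ∧ (w = 1 → c ∈ TT D k) := by
  obtain ⟨w, m, n, h1, h2, h3, h4, h5⟩ := form hp cs hk p hs ht hc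
  have h6 : n * s * n⁻¹ = t := by rw [h3]; group
  have h7 : m = 1 := by
    refine h5 fun a ha h8 => ?_
    have h9 := (h1 s hs).2 (rep cs hp.isCartan w⁻¹ a)
    rw [h6, rep_apply_inv, h8] at h9
    exact h _ (ha.act w⁻¹) h9.symm
  rw [h7, one_mul] at h4
  subst h4
  exact ⟨w, h1, h2⟩

end Cfsg.Agent.H440.EPX
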